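import Cfsg.Agent.H824.ProdLem
import Cfsg.Agent.Lib.Cores
set_option linter.all false

/-!
# A quotient criterion: `N / C' ≅ T`, `C' / R' ≅ S` simple, `R'` a `p`-group
-/

set_option autoImplicit false

namespace Cfsg.Agent.H824.NormLem

open Cfsg Subgroup Cfsg.Agent.Lib.Cores

theorem le_of_simple_quot {C : Type*} [Group C] {p : ℕ} (R : Subgroup C) [R.Normal]
    (hs : IsSimpleGroup (C ⧸ R)) (hc : ¬ IsPGroup p (C ⧸ R)) {P : Subgroup C} (hP : P.Normal)
    (hPp : IsPGroup p P) : P ≤ R := by
  have hn : (P.map (QuotientGroup.mk' R)).Normal := hP.map _ (QuotientGroup.mk'_surjective R)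
  have hp : IsPGroup p (P.map (QuotientGroup.mk' R)) := hPp.map _
  rcases hs.eq_bot_or_eq_top_of_normal _ hn with h | h
  · rwa [Subgroup.map_eq_bot_iff, QuotientGroup.ker_mk'] at h
  · exfalso
    rw [h] at hp
    exact hc (hp.of_equiv topEquiv)

theorem main_quot {N : Type*} [Group N] [Finite N] (C : Subgroup N) [hC : C.Normal] (R : Subgroup C)
    [R.Normal] {p : ℕ} [hp : Fact p.Prime] (hR : IsPGroup p R) {S T : Type*} [Group S] [Group T]
    (eS : C ⧸ R ≃* S) (eT : N ⧸ C ≃* T) (hS : IsSimpleGroup S) (hT : IsSimpleGroup T)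
    (hSp : ¬ IsPGroup p S) (hTp : ¬ IsPGroup p T)
    (hZ : ∀ c : S, (∀ x, c * x = x * c) → c = 1) {q : ℕ} (hq : q.Prime) (h1 : q ∣ Nat.card T)
    (h2 : ¬ q ∣ Nat.card (MulAut S)) :
    pCore p N = R.map C.subtype ∧ ∃ _ : (R.map C.subtype).Normal, Nonempty (N ⧸ R.map C.subtype ≃* T × S) := by
  have hsS : IsSimpleGroup (C ⧸ R) := by
    have : Nontrivial (C ⧸ R) := eS.toEquiv.nontrivial
    exact IsSimpleGroup.isSimpleGroup_of_surjective eS.symm.toMonoidHom eS.symm.surjective
  have hsT : IsSimpleGroup (N ⧸ C) := by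
    have : Nontrivial (N ⧸ C) := eT.toEquiv.nontrivial
    exact IsSimpleGroup.isSimpleGroup_of_surjective eT.symm.toMonoidHom eT.symm.surjective
  have hS' : ¬ IsPGroup p (C ⧸ R) := fun h => hSp (h.of_equiv eS)
  have hT' : ¬ IsPGroup p (N ⧸ C) := fun h => hTp (h.of_equiv eT)
  have hRc : R = pCore p C := by
    apply le_antisymm
    · exact le_pCore inferInstance hR
    · exact le_of_simple_quot R hsS hS' (pCore_normal p) (pCore_isPGroup p)
  have hchar : R.Characteristic := by rw [hRc]; exact pCore_characteristic p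
  have hn : (R.map C.subtype).Normal := inferInstance
  have hle : R.map C.subtype ≤ C := map_subtype_le R
  refine ⟨?_, hn, ?_⟩
  · apply le_antisymm
    · have h3 : pCore p N ≤ C := le_of_simple_quot C hsT hT' (pCore_normal p) (pCore_isPGroup p)
      have h4 := map_subtype_pCore p hC
      rw [inf_eq_right.2 h3] at h4
      rw [← h4, ← hRc]
    · exact le_pCore hn (hR.map _)
  · have hmem : ∀ c : C, (c : N) ∈ R.map C.subtype ↔ c ∈ R := by
      intro c
      constructor
      · rintro ⟨d, hd, h⟩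
        rwa [← Subtype.ext h]
      · intro h
        exact ⟨c, h, rfl⟩
    let K : Subgroup (N ⧸ R.map C.subtype) := C.map (QuotientGroup.mk' (R.map C.subtype))
    have hK : K.Normal := hC.map _ (QuotientGroup.mk'_surjective _)
    let e1 : (N ⧸ R.map C.subtype) ⧸ K ≃* T :=
      (QuotientGroup.quotientQuotientEquivQuotient (R.map C.subtype) C hle).trans eT
    let f : C →* K := ((QuotientGroup.mk' (R.map C.subtype)).comp C.subtype).codRestrict K
      (fun c => ⟨c, c.2, rfl⟩)
    have hf : Function.Surjective f := by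
      rintro ⟨_, c, hc, rfl⟩
      exact ⟨⟨c, hc⟩, rfl⟩
    have hker : f.ker = R := by
      ext c
      rw [MonoidHom.mem_ker, ← hmem, ← QuotientGroup.eq_one_iff]
      exact ⟨fun h => congrArg Subtype.val h, fun h => Subtype.ext h⟩
    let e2 : K ≃* S := ((QuotientGroup.quotientKerEquivOfSurjective f hf).symm.trans
      (QuotientGroup.quotientMulEquivOfEq hker)).trans eS
    exact ProdLem.prod_of_card K e2 e1 hT hZ hq h1 h2

end Cfsg.Agent.H824.NormLem
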